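import Cfsg.Agent.H154.StrP.Fi23
import Cfsg.Agent.S1688
import Cfsg.Agent.H665.TIA
import Cfsg.Agent.H665.TID

/-!
# Sylow 5-subgroups of `Fi22` are not TI (helper665)

In `2.Fi22 = ⟨a, …, i⟩ ≤ Fi23`: `abcd` has order 5 and commutes with the transpositions `g, f, T, i` (an `S5`), where
`T = uau⁻¹`; `gfTi` and `iTgf` have order 5 and their product has order 3.
-/

set_option autoImplicit false
set_option maxRecDepth 100000
set_option linter.constructorNameAsVariable false

namespace Cfsg.Agent.H665.SporFi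

open Subgroup Cfsg Cfsg.Agent.LThreeFi23 Cfsg.Agent.Lib.PermNet Cfsg.Agent.H154.StrP.Fi23 Cfsg.Agent.H666.TI
open Cfsg.Agent.Fischer.Fi23Hom (rho gen)
open Cfsg.Spor (Fi23 Fi22)
open Cfsg.Spor.Fi23 (Gen)

def u0 : List Lt := [.h, .d, .e, .c, .d, .h, .i, .b, .c, .d, .h, .e, .d, .c, .b]
def Tw : List Lt := u0 ++ .a :: u0.reverse
def aw : List Lt := [.a, .b, .c, .d]
def xw : List Lt := [.g, .f] ++ Tw ++ [.i]
def zw : List Lt := [.i] ++ Tw ++ [.g, .f]

theorem aw_pow : elw aw ^ 5 = 1 := pow_of (by decide +kernel)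
theorem xw_pow : elw xw ^ 5 = 1 := pow_of (by decide +kernel)
theorem zw_pow : elw zw ^ 5 = 1 := pow_of (by decide +kernel)

theorem comm_x : elw aw * elw xw = elw xw * elw aw := by
  have h : elw (aw ++ xw) = elw (xw ++ aw) := elw_eq_of_checkEq (by decide +kernel)
  rwa [elw_append, elw_append] at h

theorem comm_z : elw aw * elw zw = elw zw * elw aw := by
  have h : elw (aw ++ zw) = elw (zw ++ aw) := elw_eq_of_checkEq (by decide +kernel)
  rwa [elw_append, elw_append] at h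

theorem xz_pow : (elw xw * elw zw) ^ 3 = 1 := by
  rw [← elw_append]
  exact pow_of (by decide +kernel)

theorem aw_ne : elw aw ≠ 1 := ne_one_of (p := 11589) (q := 8004) (by decide +kernel) (by decide)

theorem xz_ne : elw xw * elw zw ≠ 1 := by
  rw [← elw_append]
  exact ne_one_of (p := 8002) (q := 8005) (by decide +kernel) (by decide)

/-- the subgroup of S1688 -/
abbrev H : Subgroup Fi23 := ((Subgroup.closure ({Cfsg.Spor.Fi23.a, Cfsg.Spor.Fi23.b, Cfsg.Spor.Fi23.c, Cfsg.Spor.Fi23.d, Cfsg.Spor.Fi23.e, Cfsg.Spor.Fi23.f, Cfsg.Spor.Fi23.g, Cfsg.Spor.Fi23.h, Cfsg.Spor.Fi23.i} : Set (FreeGroup Cfsg.Spor.Fi23.Gen))).map (PresentedGroup.mk (Cfsg.Spor.coxRelators Cfsg.Spor.Fi23.edges ∪ {r | r ∈ Cfsg.Spor.Fi23.extra})))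

def inA : Lt → Bool
  | .j => false
  | .z => false
  | _ => true

theorem el_mem {k : Lt} (h : inA k = true) : el k ∈ H := by
  cases k
  all_goals first
    | exact absurd h (by decide)
    | exact Subgroup.mem_map_of_mem _ (Subgroup.subset_closure (by simp))

theorem elw_mem {w : List Lt} (h : w.all inA = true) : elw w ∈ H := by
  induction w with
  | nil => rw [elw_nil]; exact H.one_mem
  | cons x l ih =>
    rw [List.all_cons, Bool.and_eq_true] at h
    rw [elw_cons]
    exact H.mul_mem (el_mem h.1) (ih h.2)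

theorem not_fi22_five {G : Type*} [Group G] (h : Spor.IsoFi22 G) : ¬ IsTI 5 G := by
  have : Fact (Nat.Prime 5) := ⟨by norm_num⟩
  obtain ⟨e⟩ := h
  obtain ⟨h1, ⟨e'⟩, -⟩ := Cfsg.Agent.S1688.result
  have hfin : Finite (center H) := Nat.finite_of_card_ne_zero (by rw [h1]; norm_num)
  let f : H →* G := (e'.trans e.symm).toMonoidHom.comp (QuotientGroup.mk' (center H))
  have hker : ∀ y : H, f y = 1 → y ^ 2 = 1 := by
    intro y hy
    have h2 : (QuotientGroup.mk' (center H)) y = 1 := (e'.trans e.symm).injective (by rw [map_one]; exact hy)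
    have h3 : y ∈ center H := (QuotientGroup.eq_one_iff y).1 h2
    have h4 : (⟨y, h3⟩ : center H) ^ Nat.card (center H) = 1 := pow_card_eq_one'
    rw [h1] at h4
    exact congrArg Subtype.val h4
  have key : ∀ (y : H) (n : ℕ), y ^ n = 1 → Odd n → y ≠ 1 → f y ≠ 1 := by
    intro y n hn ho hy h0
    have h2 := hker y h0
    have h3 : orderOf y ∣ Nat.gcd n 2 := Nat.dvd_gcd (orderOf_dvd_of_pow_eq_one hn) (orderOf_dvd_of_pow_eq_one h2)
    rw [Nat.Coprime.gcd_eq_one (Nat.coprime_two_right.2 ho), Nat.dvd_one, orderOf_eq_one_iff] at h3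
    exact hy h3
  let A : H := ⟨elw aw, elw_mem (by decide)⟩
  let X : H := ⟨elw xw, elw_mem (by decide)⟩
  let Z : H := ⟨elw zw, elw_mem (by decide)⟩
  have hA : A ^ 5 = 1 := Subtype.ext aw_pow
  have hX : X ^ 5 = 1 := Subtype.ext xw_pow
  have hZ : Z ^ 5 = 1 := Subtype.ext zw_pow
  have hXZ : (X * Z) ^ 3 = 1 := Subtype.ext xz_pow
  have hAX : A * X = X * A := Subtype.ext comm_x
  have hAZ : A * Z = Z * A := Subtype.ext comm_z
  have hA1 : A ≠ 1 := fun h => aw_ne (congrArg Subtype.val h)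
  have hXZ1 : X * Z ≠ 1 := fun h => xz_ne (congrArg Subtype.val h)
  refine TIA.not_of_wit (f A) (f X) (f Z) (key A 5 hA (by decide) hA1) ?_ ?_ ?_ ?_ ?_ (n := 3) ?_ (by norm_num) ?_
  · rw [← map_pow, hA, map_one]
  · rw [← map_pow, hX, map_one]
  · rw [← map_pow, hZ, map_one]
  · rw [← map_mul, hAX, map_mul]
  · rw [← map_mul, hAZ, map_mul]
  · rw [← map_mul, ← map_pow, hXZ, map_one]
  · rw [← map_mul]
    exact key _ 3 hXZ (by decide) hXZ1

end Cfsg.Agent.H665.SporFi
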